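import Cfsg.Agent.H22.Cov

/-! Lifting involutions to the centraliser of an involution. -/

set_option autoImplicit false

namespace Cfsg.Agent.H22

theorem li_result {G L : Type*} [Group G] [Group L] {d : G} (hd : orderOf d = 2)
    [((Subgroup.zpowers d).subgroupOf (Subgroup.centralizer ({d} : Set G))).Normal]
    (e : ↥(Subgroup.centralizer ({d} : Set G)) ⧸
      (Subgroup.zpowers d).subgroupOf (Subgroup.centralizer ({d} : Set G)) ≃* L)
    (h : LI (e.toMonoidHom.comp (QuotientGroup.mk' _))) :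
    (∀ x : ↥(Subgroup.centralizer ({d} : Set G)) ⧸
      (Subgroup.zpowers d).subgroupOf (Subgroup.centralizer ({d} : Set G)), orderOf x = 2 →
      ∃ y : ↥(Subgroup.centralizer ({d} : Set G)), orderOf y = 2 ∧ QuotientGroup.mk y = x) ∧
      ¬ ∃ g : G, g ^ 2 = d := by
  refine ⟨fun x hx => ?_, ?_⟩
  · obtain ⟨y, rfl⟩ := QuotientGroup.mk_surjective x
    refine ⟨y, orderOf_eq_prime ((pow_two y).trans (h y ?_)) fun e1 => ?_, rfl⟩
    · show e _ * e _ = 1
      rw [← map_mul, ← pow_two, QuotientGroup.mk'_apply, ← hx, pow_orderOf_eq_one, map_one]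
    · rw [e1, QuotientGroup.mk_one, orderOf_one] at hx; exact absurd hx (by decide)
  · rintro ⟨g, hg⟩
    exact h.not_sq (dc_centralizer hd e) ⟨g, Subgroup.mem_centralizer_singleton_iff.2
      (by rw [← hg]; group)⟩ (Subtype.ext ((pow_two g).symm.trans hg))

end Cfsg.Agent.H22
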